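-- Team project CHO (S1082, S1083): the cut of the reduction packages [RED-D4], [RED-B2] (helper99).
import Mathlib
import Cfsg.Agent.Lib.Helper99.CHO.Defs

set_option autoImplicit false
open scoped MatrixGroups
open Matrix

namespace Cfsg.Agent.Lib.Helper99.CHO

universe u

section D4
variable (K : Type u) [Field K]

/-- The basis vector `e_{i+1}` of `K^8`. -/
def eD (i : Fin 4) : Fin 4 ⊕ Fin 4 → K := Pi.single (Sum.inl i) 1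

/-- The basis vector `f_{i+1}` of `K^8`. -/
def fD (i : Fin 4) : Fin 4 ⊕ Fin 4 → K := Pi.single (Sum.inr i) 1

/-- `g` maps `e_i ↦ a_i e_i`, `f_i ↦ a_i⁻¹ f_i` for the first `k` hyperbolic pairs. -/
def MonoD4 (k : ℕ) (g : GL (Fin 4 ⊕ Fin 4) K) : Prop :=
  ∀ i : Fin 4, i.val < k → ∃ a : K, a ≠ 0 ∧
    (g : Matrix (Fin 4 ⊕ Fin 4) (Fin 4 ⊕ Fin 4) K) *ᵥ eD K i = a • eD K i ∧
    (g : Matrix (Fin 4 ⊕ Fin 4) (Fin 4 ⊕ Fin 4) K) *ᵥ fD K i = a⁻¹ • fD K i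

end D4

section B2
variable (K : Type u) [Field K]

/-- The basis vector `e_{i+1}` of `K^5`. -/
def eB (i : Fin 2) : Unit ⊕ (Fin 2 ⊕ Fin 2) → K := Pi.single (Sum.inr (Sum.inl i)) 1

/-- The basis vector `f_{i+1}` of `K^5`. -/
def fB (i : Fin 2) : Unit ⊕ (Fin 2 ⊕ Fin 2) → K := Pi.single (Sum.inr (Sum.inr i)) 1

/-- `g` maps `e_i ↦ a_i e_i`, `f_i ↦ a_i⁻¹ f_i` for the first `k` hyperbolic pairs. -/
def MonoB2 (k : ℕ) (g : GL (Unit ⊕ (Fin 2 ⊕ Fin 2)) K) : Prop :=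
  ∀ i : Fin 2, i.val < k → ∃ a : K, a ≠ 0 ∧
    (g : Matrix (Unit ⊕ (Fin 2 ⊕ Fin 2)) (Unit ⊕ (Fin 2 ⊕ Fin 2)) K) *ᵥ eB K i = a • eB K i ∧
    (g : Matrix (Unit ⊕ (Fin 2 ⊕ Fin 2)) (Unit ⊕ (Fin 2 ⊕ Fin 2)) K) *ᵥ fB K i = a⁻¹ • fB K i

end B2

/-- [RO-D4] the root elements are isometries (from [UNIT-D4] and [ISO-D4]). -/
def PkgRoD4 : Prop :=
  ∀ (K : Type u) [Field K], RD4 K ≤ Cfsg.isometryGroup K (Cfsg.quadFormPlus 4 K)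

/-- [RO-B2] -/
def PkgRoB2 : Prop :=
  ∀ (K : Type u) [Field K], RB2 K ≤ Cfsg.isometryGroup K (Cfsg.quadFormOdd 2 K)

/-- [ST-D4-k] (`k = 0, 1, 2`) one reduction step: an isometry that is monomial on the first `k`
hyperbolic pairs becomes monomial on the first `k + 1` pairs after multiplying by an element of
`R` (root elements of the roots `± ε_i ± ε_j`, `k < i < j`, i.e. supported on the pairs `> k`). -/
def PkgStD4 (k : ℕ) : Prop :=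
  ∀ (K : Type u) [Field K], ∀ g ∈ Cfsg.isometryGroup K (Cfsg.quadFormPlus 4 K),
    MonoD4 K k g → ∃ ρ ∈ RD4 K, MonoD4 K (k + 1) (ρ * g)

/-- [FIN-D4] an isometry monomial on the first three hyperbolic pairs is block-monomial. -/
def PkgFinD4 : Prop :=
  ∀ (K : Type u) [Field K], ∀ g ∈ Cfsg.isometryGroup K (Cfsg.quadFormPlus 4 K),
    MonoD4 K 3 g → g ∈ DgD4 K

/-- [ST-B2-k] (`k = 0, 1`) one reduction step for `x_0^2 + x_1 y_1 + x_2 y_2`. -/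
def PkgStB2 (k : ℕ) : Prop :=
  ∀ (K : Type u) [Field K], ∀ g ∈ Cfsg.isometryGroup K (Cfsg.quadFormOdd 2 K),
    MonoB2 K k g → ∃ ρ ∈ RB2 K, MonoB2 K (k + 1) (ρ * g)

/-- [FIN-B2] an isometry monomial on both hyperbolic pairs is diagonal. -/
def PkgFinB2 : Prop :=
  ∀ (K : Type u) [Field K], ∀ g ∈ Cfsg.isometryGroup K (Cfsg.quadFormOdd 2 K),
    MonoB2 K 2 g → g ∈ DgB2 K

/-- [RED-D4] from the steps. -/
theorem pkgRedD4_of (hRO : PkgRoD4.{u}) (h0 : PkgStD4.{u} 0) (h1 : PkgStD4.{u} 1)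
    (h2 : PkgStD4.{u} 2) (hFin : PkgFinD4.{u}) : PkgRedD4.{u} := by
  intro K _ g hg
  have hm0 : MonoD4 K 0 g := fun i hi => absurd hi (Nat.not_lt_zero _)
  obtain ⟨ρ₁, hρ₁, hm1⟩ := h0 K g hg hm0
  have hg1 : ρ₁ * g ∈ Cfsg.isometryGroup K (Cfsg.quadFormPlus 4 K) :=
    Subgroup.mul_mem _ (hRO K hρ₁) hg
  obtain ⟨ρ₂, hρ₂, hm2⟩ := h1 K _ hg1 hm1
  have hg2 : ρ₂ * (ρ₁ * g) ∈ Cfsg.isometryGroup K (Cfsg.quadFormPlus 4 K) :=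
    Subgroup.mul_mem _ (hRO K hρ₂) hg1
  obtain ⟨ρ₃, hρ₃, hm3⟩ := h2 K _ hg2 hm2
  have hg3 : ρ₃ * (ρ₂ * (ρ₁ * g)) ∈ Cfsg.isometryGroup K (Cfsg.quadFormPlus 4 K) :=
    Subgroup.mul_mem _ (hRO K hρ₃) hg2
  refine ⟨(ρ₃ * ρ₂ * ρ₁)⁻¹, Subgroup.inv_mem _ (Subgroup.mul_mem _ (Subgroup.mul_mem _ hρ₃ hρ₂) hρ₁),
    ρ₃ * (ρ₂ * (ρ₁ * g)), hFin K _ hg3 hm3, ?_⟩
  group

/-- [RED-B2] from the steps. -/
theorem pkgRedB2_of (hRO : PkgRoB2.{u}) (h0 : PkgStB2.{u} 0) (h1 : PkgStB2.{u} 1)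
    (hFin : PkgFinB2.{u}) : PkgRedB2.{u} := by
  intro K _ g hg
  have hm0 : MonoB2 K 0 g := fun i hi => absurd hi (Nat.not_lt_zero _)
  obtain ⟨ρ₁, hρ₁, hm1⟩ := h0 K g hg hm0
  have hg1 : ρ₁ * g ∈ Cfsg.isometryGroup K (Cfsg.quadFormOdd 2 K) :=
    Subgroup.mul_mem _ (hRO K hρ₁) hg
  obtain ⟨ρ₂, hρ₂, hm2⟩ := h1 K _ hg1 hm1
  have hg2 : ρ₂ * (ρ₁ * g) ∈ Cfsg.isometryGroup K (Cfsg.quadFormOdd 2 K) :=
    Subgroup.mul_mem _ (hRO K hρ₂) hg1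
  refine ⟨(ρ₂ * ρ₁)⁻¹, Subgroup.inv_mem _ (Subgroup.mul_mem _ hρ₂ hρ₁),
    ρ₂ * (ρ₁ * g), hFin K _ hg2 hm2, ?_⟩
  group

end Cfsg.Agent.Lib.Helper99.CHO
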