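-- Team project CHO (S1082, S1083): the generic glue (helper99).
-- A Chevalley group `D.group K` that is simple is isomorphic to `PΩ(Q)` as soon as there is a
-- model: root elements `E r t` of `GL ι K` generating `Ω(Q)` and matrices `b I` on which they act
-- by conjugation through the matrices `D.xMat K r t`, with scalar centralizer.
import Mathlib
import Cfsg.Prelude.Def_Chevalley
import Cfsg.Prelude.Def_Classical
import Cfsg.Prelude.Def_GeometricClasses

set_option autoImplicit false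
open scoped MatrixGroups
open Matrix

namespace Cfsg.Agent.Lib.Helper99.CHO

universe u

section glue

variable {K : Type u} [Field K] {ι : Type} [Fintype ι] [DecidableEq ι]
variable (D : Cfsg.Lie.ChevalleyDatum)

/-- The linear combination `Σ v_I b_I`. -/
def comb (b : D.Idx → Matrix ι ι K) (v : D.Idx → K) : Matrix ι ι K := ∑ I, v I • b I

theorem comb_single (b : D.Idx → Matrix ι ι K) (I : D.Idx) :
    comb D b (Pi.single I 1) = b I := by
  classical
  unfold comb
  rw [Finset.sum_eq_single I]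
  · simp
  · intro J _ hJ
    simp [hJ]
  · intro h
    exact absurd (Finset.mem_univ I) h

/-- The subgroup of compatible pairs `(g, e)`: conjugation by `e` on the span of the `b I` is
given by the matrix `g`. -/
def compat (b : D.Idx → Matrix ι ι K) : Subgroup (GL D.Idx K × GL ι K) where
  carrier := {p | ∀ v : D.Idx → K, (p.2 : Matrix ι ι K) * comb D b v =
    comb D b ((p.1 : Matrix D.Idx D.Idx K) *ᵥ v) * (p.2 : Matrix ι ι K)}
  mul_mem' := by
    intro p q hp hq v
    have hp' := hp ((q.1 : Matrix D.Idx D.Idx K) *ᵥ v)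
    have hq' := hq v
    simp only [Prod.snd_mul, Prod.fst_mul, Units.val_mul]
    rw [Matrix.mul_assoc, hq', ← Matrix.mul_assoc, hp', Matrix.mulVec_mulVec, Matrix.mul_assoc]
  one_mem' := by
    intro v
    simp
  inv_mem' := by
    intro p hp v
    have h1 := hp ((((p.1)⁻¹ : GL D.Idx K) : Matrix D.Idx D.Idx K) *ᵥ v)
    rw [Matrix.mulVec_mulVec] at h1
    have e1 : (p.1 : Matrix D.Idx D.Idx K) * (((p.1)⁻¹ : GL D.Idx K) : Matrix D.Idx D.Idx K) = 1 := by
      rw [← Units.val_mul, mul_inv_cancel, Units.val_one]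
    rw [e1, Matrix.one_mulVec] at h1
    have e2 : (((p.2)⁻¹ : GL ι K) : Matrix ι ι K) * (p.2 : Matrix ι ι K) = 1 := by
      rw [← Units.val_mul, inv_mul_cancel, Units.val_one]
    have e3 : (p.2 : Matrix ι ι K) * (((p.2)⁻¹ : GL ι K) : Matrix ι ι K) = 1 := by
      rw [← Units.val_mul, mul_inv_cancel, Units.val_one]
    simp only [Prod.snd_inv, Prod.fst_inv]
    calc (((p.2)⁻¹ : GL ι K) : Matrix ι ι K) * comb D b v
        = (((p.2)⁻¹ : GL ι K) : Matrix ι ι K) * (comb D b v * (p.2 : Matrix ι ι K)) *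
            (((p.2)⁻¹ : GL ι K) : Matrix ι ι K) := by
          rw [Matrix.mul_assoc, Matrix.mul_assoc, e3, Matrix.mul_one]
      _ = (((p.2)⁻¹ : GL ι K) : Matrix ι ι K) * ((p.2 : Matrix ι ι K) *
            comb D b ((((p.1)⁻¹ : GL D.Idx K) : Matrix D.Idx D.Idx K) *ᵥ v)) *
            (((p.2)⁻¹ : GL ι K) : Matrix ι ι K) := by rw [h1]
      _ = comb D b ((((p.1)⁻¹ : GL D.Idx K) : Matrix D.Idx D.Idx K) *ᵥ v) *
            (((p.2)⁻¹ : GL ι K) : Matrix ι ι K) := by
          rw [← Matrix.mul_assoc, e2, Matrix.one_mul]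

theorem mem_compat_of_cols (b : D.Idx → Matrix ι ι K) (g : GL D.Idx K) (e : GL ι K)
    (h : ∀ I : D.Idx, (e : Matrix ι ι K) * b I =
      (∑ J, (g : Matrix D.Idx D.Idx K) J I • b J) * (e : Matrix ι ι K)) :
    (g, e) ∈ compat D b := by
  intro v
  show (e : Matrix ι ι K) * comb D b v = comb D b ((g : Matrix D.Idx D.Idx K) *ᵥ v) * _
  unfold comb
  rw [Finset.mul_sum, Finset.sum_mul]
  have h2 : ∀ I : D.Idx, (e : Matrix ι ι K) * (v I • b I) =
      ∑ J, (v I * (g : Matrix D.Idx D.Idx K) J I) • (b J * (e : Matrix ι ι K)) := by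
    intro I
    rw [Matrix.mul_smul, h I, Finset.sum_mul, Finset.smul_sum]
    apply Finset.sum_congr rfl
    intro J _
    rw [Matrix.smul_mul, smul_smul]
  rw [Finset.sum_congr rfl (fun I _ => h2 I), Finset.sum_comm]
  apply Finset.sum_congr rfl
  intro J _
  rw [Matrix.smul_mul, ← Finset.sum_smul]
  congr 1
  simp only [Matrix.mulVec, dotProduct]
  apply Finset.sum_congr rfl
  intro I _
  ring

/-- A multiplicative equivalence maps the centre onto the centre. -/
theorem map_center_equiv {A B : Type*} [Group A] [Group B] (e : A ≃* B) :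
    (Subgroup.center A).map e.toMonoidHom = Subgroup.center B := by
  ext y
  constructor
  · rintro ⟨x, hx, rfl⟩
    have hx' : x ∈ Subgroup.center A := hx
    rw [Subgroup.mem_center_iff] at hx' ⊢
    intro z
    obtain ⟨w, rfl⟩ := e.surjective z
    show e w * e x = e x * e w
    rw [← map_mul, ← map_mul, hx' w]
  · intro hy
    have hmem : e.symm y ∈ Subgroup.center A := by
      rw [Subgroup.mem_center_iff]
      intro w
      apply e.injective
      rw [map_mul, map_mul, MulEquiv.apply_symm_apply]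
      rw [Subgroup.mem_center_iff] at hy
      exact hy (e w)
    exact ⟨e.symm y, hmem, by simp⟩

/-- **The generic glue.** -/
theorem iso_of_model (Q : (ι → K) → K) (E : Fin D.nroots → K → GL ι K)
    (b : D.Idx → Matrix ι ι K)
    (hsimple : IsSimpleGroup ↥(D.group K))
    (hx : ∀ (r : Fin D.nroots) (t : K), ∃ g : GL D.Idx K,
      (g : Matrix D.Idx D.Idx K) = D.xMat K r t)
    (hequiv : ∀ (r : Fin D.nroots) (t : K) (I : D.Idx), (E r t : Matrix ι ι K) * b I =
      (∑ J, D.xMat K r t J I • b J) * (E r t : Matrix ι ι K))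
    (hcent : ∀ g : Matrix ι ι K, (∀ I, g * b I = b I * g) → ∀ (r : Fin D.nroots) (t : K),
      g * (E r t : Matrix ι ι K) = (E r t : Matrix ι ι K) * g)
    (hgen : Cfsg.Geo.omegaGL Q =
      Subgroup.closure (Set.range fun p : Fin D.nroots × K => E p.1 p.2))
    (hnonab : ∃ (r s : Fin D.nroots) (t u : K), E r t * E s u ≠ E s u * E r t) :
    Nonempty (↥(D.group K) ≃* Cfsg.POmega K Q) := by
  classical
  -- the subgroup generated by the pairs
  let S : Set (GL D.Idx K × GL ι K) :=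
    {p | ∃ (r : Fin D.nroots) (t : K), (p.1 : Matrix D.Idx D.Idx K) = D.xMat K r t ∧ p.2 = E r t}
  let Γ : Subgroup (GL D.Idx K × GL ι K) := Subgroup.closure S
  let R : Subgroup (GL ι K) := Subgroup.closure (Set.range fun p : Fin D.nroots × K => E p.1 p.2)
  have hΓc : Γ ≤ compat D b := by
    rw [Subgroup.closure_le]
    rintro ⟨g, e⟩ ⟨r, t, h1, h2⟩
    simp only at h1 h2
    apply mem_compat_of_cols
    intro I
    rw [h1, h2]
    exact hequiv r t I
  have hfst : Γ.map (MonoidHom.fst (GL D.Idx K) (GL ι K)) = D.group K := by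
    show (Subgroup.closure S).map _ = _
    rw [MonoidHom.map_closure]
    unfold Cfsg.Lie.ChevalleyDatum.group
    congr 1
    ext g
    constructor
    · rintro ⟨p, ⟨r, t, h1, -⟩, rfl⟩
      exact ⟨r, t, h1⟩
    · rintro ⟨r, t, h⟩
      exact ⟨(g, E r t), ⟨r, t, h, rfl⟩, rfl⟩
  have hsnd : Γ.map (MonoidHom.snd (GL D.Idx K) (GL ι K)) = R := by
    show (Subgroup.closure S).map _ = _
    rw [MonoidHom.map_closure]
    congr 1
    ext e
    constructor
    · rintro ⟨p, ⟨r, t, -, h2⟩, rfl⟩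
      exact ⟨(r, t), h2.symm⟩
    · rintro ⟨⟨r, t⟩, rfl⟩
      obtain ⟨g, hg⟩ := hx r t
      exact ⟨(g, E r t), ⟨r, t, hg, rfl⟩, rfl⟩
  -- the two projections
  let f₁ : Γ →* ↥(D.group K) :=
    ((MonoidHom.fst (GL D.Idx K) (GL ι K)).comp Γ.subtype).codRestrict (D.group K)
      (fun γ => by
        rw [← hfst]
        exact ⟨γ.1, γ.2, rfl⟩)
  let f₂ : Γ →* ↥R :=
    ((MonoidHom.snd (GL D.Idx K) (GL ι K)).comp Γ.subtype).codRestrict R
      (fun γ => by
        rw [← hsnd]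
        exact ⟨γ.1, γ.2, rfl⟩)
  have hf₁ : Function.Surjective f₁ := by
    rintro ⟨g, hg⟩
    rw [← hfst] at hg
    obtain ⟨p, hp, rfl⟩ := hg
    exact ⟨⟨p, hp⟩, rfl⟩
  have hf₂ : Function.Surjective f₂ := by
    rintro ⟨e, he⟩
    rw [← hsnd] at he
    obtain ⟨p, hp, rfl⟩ := he
    exact ⟨⟨p, hp⟩, rfl⟩
  let ψ : Γ →* ↥R ⧸ Subgroup.center ↥R := (QuotientGroup.mk' (Subgroup.center ↥R)).comp f₂
  have hψ : Function.Surjective ψ :=
    (QuotientGroup.mk'_surjective (Subgroup.center ↥R)).comp hf₂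
  have hker : f₁.ker ≤ ψ.ker := by
    intro γ hγ
    rw [MonoidHom.mem_ker] at hγ ⊢
    have hg1 : γ.1.1 = 1 := by
      have := congrArg Subtype.val hγ
      exact this
    have hc := hΓc γ.2
    have hcomm : ∀ I, (γ.1.2 : Matrix ι ι K) * b I = b I * (γ.1.2 : Matrix ι ι K) := by
      intro I
      have := hc (Pi.single I 1)
      rw [hg1, Units.val_one, Matrix.one_mulVec, comb_single] at this
      exact this
    have hc2 := hcent _ hcomm
    have hle : R ≤ Subgroup.centralizer {γ.1.2} := by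
      show Subgroup.closure _ ≤ _
      rw [Subgroup.closure_le]
      rintro _ ⟨⟨r, t⟩, rfl⟩
      rw [SetLike.mem_coe, Subgroup.mem_centralizer_iff]
      intro h hh
      rw [Set.mem_singleton_iff] at hh
      subst hh
      apply Units.ext
      simp only [Units.val_mul]
      exact hc2 r t
    show (QuotientGroup.mk' (Subgroup.center ↥R)) (f₂ γ) = 1
    rw [QuotientGroup.mk'_apply, QuotientGroup.eq_one_iff, Subgroup.mem_center_iff]
    intro y
    apply Subtype.ext
    have hy := hle y.2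
    rw [Subgroup.mem_centralizer_iff] at hy
    exact (hy _ rfl).symm
  let φ : ↥(D.group K) →* ↥R ⧸ Subgroup.center ↥R := f₁.liftOfSurjective hf₁ ⟨ψ, hker⟩
  have hφ : ∀ γ, φ (f₁ γ) = ψ γ := fun γ =>
    MonoidHom.liftOfRightInverse_comp_apply _ _ _ ⟨ψ, hker⟩ γ
  have hφsurj : Function.Surjective φ := by
    intro y
    obtain ⟨γ, rfl⟩ := hψ y
    exact ⟨f₁ γ, hφ γ⟩
  have hφinj : Function.Injective φ := by
    rw [← MonoidHom.ker_eq_bot_iff]
    rcases (MonoidHom.normal_ker φ).eq_bot_or_eq_top with h | h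
    · exact h
    · exfalso
      obtain ⟨r, s, t, u, hne⟩ := hnonab
      have hr : E r t ∈ R := Subgroup.subset_closure ⟨(r, t), rfl⟩
      have hs : E s u ∈ R := Subgroup.subset_closure ⟨(s, u), rfl⟩
      have htriv : ∀ y : ↥R ⧸ Subgroup.center ↥R, y = 1 := by
        intro y
        obtain ⟨x, rfl⟩ := hφsurj y
        have : x ∈ φ.ker := by rw [h]; trivial
        exact this
      have h1 := htriv (QuotientGroup.mk' (Subgroup.center ↥R) ⟨E r t, hr⟩)
      rw [QuotientGroup.mk'_apply, QuotientGroup.eq_one_iff, Subgroup.mem_center_iff] at h1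
      have h2 := h1 ⟨E s u, hs⟩
      have h3 := congrArg Subtype.val h2
      exact hne h3.symm
  let e₁ : ↥(D.group K) ≃* ↥R ⧸ Subgroup.center ↥R := MulEquiv.ofBijective φ ⟨hφinj, hφsurj⟩
  -- Ω ≃ R
  let Ω : Subgroup ↥(Cfsg.isometryGroup K Q) := Cfsg.Omega K Q
  have hΩ : Ω.map (Cfsg.isometryGroup K Q).subtype = R := hgen
  let e₂ : ↥Ω ≃* ↥R :=
    (Ω.equivMapOfInjective _ (Subgroup.subtype_injective _)).trans (MulEquiv.subgroupCongr hΩ)
  let e₃ : ↥Ω ⧸ Subgroup.center ↥Ω ≃* ↥R ⧸ Subgroup.center ↥R :=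
    QuotientGroup.congr (Subgroup.center ↥Ω) (Subgroup.center ↥R) e₂ (map_center_equiv e₂)
  exact ⟨e₁.trans e₃.symm⟩

/-- **Generic generation lemma**: `Ω(Q)` is the group `R` generated by the root elements, if
they lie in `Ω(Q)`, every isometry is `ρ * d` with `ρ ∈ R` and `d` in a set `Dg` normalizing
`R`, and commutators of elements of `Dg` lie in `R`. -/
theorem gen_of (Q : (ι → K) → K) (n : ℕ) (E : Fin n → K → GL ι K) (Dg : Set (GL ι K))
    (hIn : ∀ r t, E r t ∈ Cfsg.Geo.omegaGL Q)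
    (hRed : ∀ g ∈ Cfsg.isometryGroup K Q,
      ∃ ρ ∈ Subgroup.closure (Set.range fun p : Fin n × K => E p.1 p.2), ∃ d ∈ Dg, g = ρ * d)
    (hNorm : ∀ d ∈ Dg, ∀ r t,
      d * E r t * d⁻¹ ∈ Subgroup.closure (Set.range fun p : Fin n × K => E p.1 p.2))
    (hComm : ∀ d₁ ∈ Dg, ∀ d₂ ∈ Dg,
      d₁ * d₂ * d₁⁻¹ * d₂⁻¹ ∈ Subgroup.closure (Set.range fun p : Fin n × K => E p.1 p.2)) :
    Cfsg.Geo.omegaGL Q = Subgroup.closure (Set.range fun p : Fin n × K => E p.1 p.2) := by
  set R : Subgroup (GL ι K) := Subgroup.closure (Set.range fun p : Fin n × K => E p.1 p.2)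
    with hR
  have hNorm' : ∀ d ∈ Dg, ∀ x ∈ R, d * x * d⁻¹ ∈ R := by
    intro d hd
    have hle : R ≤ R.comap (MulAut.conj d).toMonoidHom := by
      rw [hR, Subgroup.closure_le]
      rintro _ ⟨⟨r, t⟩, rfl⟩
      show (MulAut.conj d) (E r t) ∈ R
      rw [MulAut.conj_apply]
      exact hNorm d hd r t
    intro x hx
    have := hle hx
    rw [Subgroup.mem_comap] at this
    simpa [MulAut.conj_apply] using this
  apply le_antisymm
  · -- Ω ≤ R
    unfold Cfsg.Geo.omegaGL
    rw [Subgroup.map_le_iff_le_comap]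
    show commutator ↥(Cfsg.isometryGroup K Q) ≤ _
    rw [commutator_def, Subgroup.commutator_le]
    intro g₁ _ g₂ _
    rw [commutatorElement_def, Subgroup.mem_comap]
    obtain ⟨ρ₁, hρ₁, d₁, hd₁, e₁⟩ := hRed g₁.1 g₁.2
    obtain ⟨ρ₂, hρ₂, d₂, hd₂, e₂⟩ := hRed g₂.1 g₂.2
    have key : ((Cfsg.isometryGroup K Q).subtype (g₁ * g₂ * g₁⁻¹ * g₂⁻¹) : GL ι K) =
        ρ₁ * (d₁ * ρ₂ * d₁⁻¹) * (d₁ * d₂ * d₁⁻¹ * d₂⁻¹) * (d₂ * ρ₁⁻¹ * d₂⁻¹) * ρ₂⁻¹ := by
      show (g₁.1 * g₂.1 * g₁.1⁻¹ * g₂.1⁻¹ : GL ι K) = _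
      rw [e₁, e₂]
      group
    rw [key]
    exact R.mul_mem (R.mul_mem (R.mul_mem (R.mul_mem hρ₁ (hNorm' d₁ hd₁ ρ₂ hρ₂))
      (hComm d₁ hd₁ d₂ hd₂)) (hNorm' d₂ hd₂ _ (R.inv_mem hρ₁))) (R.inv_mem hρ₂)
  · rw [hR, Subgroup.closure_le]
    rintro _ ⟨⟨r, t⟩, rfl⟩
    exact hIn r t

end glue

end Cfsg.Agent.Lib.Helper99.CHO
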