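-- Team project CHO (S1082, S1083): the generation packages in their final shape (helper99).
import Mathlib
import Cfsg.Agent.Lib.Helper99.CHO.Defs2
import Cfsg.Agent.Lib.Helper99.CHO.Glue

set_option autoImplicit false
open scoped MatrixGroups
open Matrix

namespace Cfsg.Agent.Lib.Helper99.CHO

universe u

/-- [GEN-D4] `Ω⁺₈(K)` is generated by the model root elements, over every field. -/
def PkgGenD4 : Prop :=
  ∀ (K : Type u) [Field K], Cfsg.Geo.omegaGL (Cfsg.quadFormPlus 4 K) = RD4 K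

/-- [GEN-B2] `Ω₅(K)` is generated by the model root elements, over every field with more than
two elements. -/
def PkgGenB2 : Prop :=
  ∀ (K : Type u) [Field K], (∃ a : K, a ≠ 0 ∧ a ≠ 1) →
    Cfsg.Geo.omegaGL (Cfsg.quadFormOdd 2 K) = RB2 K

/-- [GEN-D4] from the sub-packages of the first cut. -/
theorem pkgGenD4_of (hIn : PkgInD4.{u}) (hRed : PkgRedD4.{u}) (hNorm : PkgNormD4.{u})
    (hComm : PkgCommD4.{u}) : PkgGenD4.{u} := fun K _ =>
  gen_of (Cfsg.quadFormPlus 4 K) Cfsg.Lie.chevD4.nroots (ED4 K) (DgD4 K) (hIn K) (hRed K)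
    (hNorm K) (hComm K)

/-- [GEN-B2] from the sub-packages of the first cut. -/
theorem pkgGenB2_of (hIn : PkgInB2.{u}) (hRed : PkgRedB2.{u}) (hNorm : PkgNormB2.{u})
    (hComm : PkgCommB2.{u}) : PkgGenB2.{u} := fun K _ hK =>
  gen_of (Cfsg.quadFormOdd 2 K) Cfsg.Lie.chevB2.nroots (EB2 K) (DgB2 K) (hIn K hK) (hRed K)
    (hNorm K) (hComm K)

end Cfsg.Agent.Lib.Helper99.CHO
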