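-- Team project CHO (S1082, S1083): the assembly (helper99).
import Mathlib
import Cfsg.Agent.Lib.Helper99.CHO.Defs
import Cfsg.Agent.Lib.Helper99.CHO.Glue
import Cfsg.Agent.Lib.Helper99.CHO.Defs3
import Cfsg.Agent.S1054
import Cfsg.Agent.S1056
import Cfsg.Agent.Lib.Helper36.ChevCore

set_option autoImplicit false
open scoped MatrixGroups
open Matrix

namespace Cfsg.Agent.Lib.Helper99.CHO

universe u

theorem coe_ED4 (hU : PkgUnitD4.{u}) (K : Type u) [Field K] (r : Fin Cfsg.Lie.chevD4.nroots)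
    (t : K) : ((ED4 K r t : GL (Fin 4 ⊕ Fin 4) K) : Matrix (Fin 4 ⊕ Fin 4) (Fin 4 ⊕ Fin 4) K) =
      ED4mat K r.val t := by
  have h : IsUnit (ED4mat K r.val t) := hU K r.val t r.isLt
  unfold ED4
  rw [dif_pos h]
  exact h.unit_spec

theorem coe_EB2 (hU : PkgUnitB2.{u}) (K : Type u) [Field K] (r : Fin Cfsg.Lie.chevB2.nroots)
    (t : K) : ((EB2 K r t : GL (Unit ⊕ (Fin 2 ⊕ Fin 2)) K) :
      Matrix (Unit ⊕ (Fin 2 ⊕ Fin 2)) (Unit ⊕ (Fin 2 ⊕ Fin 2)) K) = EB2mat K r.val t := by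
  have h : IsUnit (EB2mat K r.val t) := hU K r.val t r.isLt
  unfold EB2
  rw [dif_pos h]
  exact h.unit_spec

/-- **S1082** from the packages. -/
theorem s1082_of (hX : PkgXGL.{u} Cfsg.Lie.chevD4) (hU : PkgUnitD4.{u})
    (hEq : ∀ r : ℕ, r < 24 → PkgEquivD4At.{u} r) (hCent : PkgCentD4.{u})
    (hNon : PkgNonabD4.{u}) (hGen : PkgGenD4.{u}) (F : Type u) [Field F] :
    Nonempty (↥(Cfsg.Lie.chevD4.group F) ≃* Cfsg.POmega F (Cfsg.quadFormPlus 4 F)) := by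
  have hsimple : IsSimpleGroup ↥(Cfsg.Lie.chevD4.group F) :=
    (Cfsg.Agent.S1054.result (F := F) Cfsg.Lie.chevD4 (by simp)).1
  refine iso_of_model Cfsg.Lie.chevD4 (Cfsg.quadFormPlus 4 F) (ED4 F) (bD4 F) hsimple (hX F)
    ?_ ?_ (hGen F) ?_
  · intro r t I
    rw [coe_ED4 hU]
    exact hEq r.val r.isLt F r.isLt t I
  · intro g hg r t
    rw [coe_ED4 hU]
    exact hCent F g hg r.val t r.isLt
  · obtain ⟨r, s, t, w, hr, hs, hne⟩ := hNon F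
    refine ⟨⟨r, hr⟩, ⟨s, hs⟩, t, w, ?_⟩
    intro h
    apply hne
    have h2 := congrArg (fun x : GL (Fin 4 ⊕ Fin 4) F =>
      (x : Matrix (Fin 4 ⊕ Fin 4) (Fin 4 ⊕ Fin 4) F)) h
    simp only [Units.val_mul] at h2
    rw [coe_ED4 hU, coe_ED4 hU] at h2
    exact h2

/-- **S1083** from the packages. -/
theorem s1083_of (hX : PkgXGL.{u} Cfsg.Lie.chevB2) (hU : PkgUnitB2.{u})
    (hEq : ∀ r : ℕ, r < 8 → PkgEquivB2At.{u} r) (hCent : PkgCentB2.{u})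
    (hNon : PkgNonabB2.{u}) (hGen : PkgGenB2.{u}) (F : Type u) [Field F]
    (hF : ∃ a : F, a ≠ 0 ∧ a ≠ 1) :
    Nonempty (↥(Cfsg.Lie.chevB2.group F) ≃* Cfsg.POmega F (Cfsg.quadFormOdd 2 F)) := by
  have hsimple : IsSimpleGroup ↥(Cfsg.Lie.chevB2.group F) :=
    (Cfsg.Agent.S1056.result (F := F) hF).1
  refine iso_of_model Cfsg.Lie.chevB2 (Cfsg.quadFormOdd 2 F) (EB2 F) (bB2 F) hsimple (hX F)
    ?_ ?_ (hGen F hF) ?_
  · intro r t I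
    rw [coe_EB2 hU]
    exact hEq r.val r.isLt F r.isLt t I
  · intro g hg r t
    rw [coe_EB2 hU]
    exact hCent F g hg r.val t r.isLt
  · obtain ⟨r, s, t, w, hr, hs, hne⟩ := hNon F
    refine ⟨⟨r, hr⟩, ⟨s, hs⟩, t, w, ?_⟩
    intro h
    apply hne
    have h2 := congrArg (fun x : GL (Unit ⊕ (Fin 2 ⊕ Fin 2)) F =>
      (x : Matrix (Unit ⊕ (Fin 2 ⊕ Fin 2)) (Unit ⊕ (Fin 2 ⊕ Fin 2)) F)) h
    simp only [Units.val_mul] at h2
    rw [coe_EB2 hU, coe_EB2 hU] at h2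
    exact h2

/-- [XGL-D4] from the landed BN-pair library. -/
theorem pkgXGL_D4 : PkgXGL.{u} Cfsg.Lie.chevD4 := by
  intro K _ r t
  have h := Cfsg.Agent.Lib.Helper36.isUnit_x_all (F := K) Cfsg.Lie.chevD4 (by simp) r.val t
  rw [Cfsg.Lie.ChevalleyDatum.x, dif_pos r.2] at h
  obtain ⟨g, hg⟩ := h
  exact ⟨g, hg⟩

/-- [XGL-B2] from the landed BN-pair library. -/
theorem pkgXGL_B2 : PkgXGL.{u} Cfsg.Lie.chevB2 := by
  intro K _ r t
  have h := Cfsg.Agent.Lib.Helper36.isUnit_x_all (F := K) Cfsg.Lie.chevB2 (by simp) r.val t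
  rw [Cfsg.Lie.ChevalleyDatum.x, dif_pos r.2] at h
  obtain ⟨g, hg⟩ := h
  exact ⟨g, hg⟩

end Cfsg.Agent.Lib.Helper99.CHO
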